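import Cfsg.Agent.Lib.Helper60.G2.Mat3

/-!
A concrete field with eight elements (codes `0, ..., 7`: the bits are the coefficients of
`1, a, a²` with `a³ = a + 1`), and packed 2 × 2 matrices over it as a model for the generic
certificate layer.
-/

set_option autoImplicit false

namespace Cfsg.Agent.Lib.Helper60.G2

open Cfsg.Agent.Lib.Helper60.Cert

/-- the field with eight elements -/
def F8 : Type := Fin 8

instance : DecidableEq F8 := inferInstanceAs (DecidableEq (Fin 8))
instance : Fintype F8 := inferInstanceAs (Fintype (Fin 8))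

/-- the multiplication table: entry `8 u + v` has three bits -/
def FTBL : ℕ := 2821848294356612419217921029917578219971947684264937521152
/-- the table of inverses -/
def FINV : ℕ := 9272648

/-- multiplication of codes -/
def fm (u v : ℕ) : ℕ := Nat.land (Nat.shiftRight FTBL (Nat.mul 3 (Nat.add (Nat.mul 8 u) v))) 7
/-- addition of codes -/
def fa (u v : ℕ) : ℕ := Nat.xor u v

theorem land7_lt (n : ℕ) : Nat.land n 7 < 8 := Nat.lt_succ_of_le Nat.and_le_right

/-- the element with a given code -/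
def cF (n : ℕ) : F8 := (⟨Nat.land n 7, land7_lt n⟩ : Fin 8)
/-- the code of an element -/
def vF (a : F8) : ℕ := Fin.val (show Fin 8 from a)

def add8 (a b : F8) : F8 := cF (fa (vF a) (vF b))
def mul8 (a b : F8) : F8 := cF (fm (vF a) (vF b))
def inv8 (a : F8) : F8 := cF (Nat.shiftRight FINV (Nat.mul 3 (vF a)))

theorem add8_assoc : ∀ a b c : F8, add8 (add8 a b) c = add8 a (add8 b c) := by decide +kernel
theorem add8_comm : ∀ a b : F8, add8 a b = add8 b a := by decide +kernel
theorem zero_add8 : ∀ a : F8, add8 (cF 0) a = a := by decide +kernel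
theorem add8_zero : ∀ a : F8, add8 a (cF 0) = a := by decide +kernel
theorem add8_self : ∀ a : F8, add8 a a = cF 0 := by decide +kernel
theorem mul8_assoc : ∀ a b c : F8, mul8 (mul8 a b) c = mul8 a (mul8 b c) := by decide +kernel
theorem mul8_comm : ∀ a b : F8, mul8 a b = mul8 b a := by decide +kernel
theorem one_mul8 : ∀ a : F8, mul8 (cF 1) a = a := by decide +kernel
theorem mul8_one : ∀ a : F8, mul8 a (cF 1) = a := by decide +kernel
theorem zero_mul8 : ∀ a : F8, mul8 (cF 0) a = cF 0 := by decide +kernel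
theorem mul8_zero : ∀ a : F8, mul8 a (cF 0) = cF 0 := by decide +kernel
theorem mul8_add8 : ∀ a b c : F8, mul8 a (add8 b c) = add8 (mul8 a b) (mul8 a c) := by
  decide +kernel
theorem add8_mul8 : ∀ a b c : F8, mul8 (add8 a b) c = add8 (mul8 a c) (mul8 b c) := by
  decide +kernel
theorem mul8_inv8 : ∀ a : F8, a ≠ cF 0 → mul8 a (inv8 a) = cF 1 := by decide +kernel

instance : Zero F8 := ⟨cF 0⟩
instance : One F8 := ⟨cF 1⟩
instance : Add F8 := ⟨add8⟩
instance : Mul F8 := ⟨mul8⟩
instance : Neg F8 := ⟨fun a => a⟩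
instance : Sub F8 := ⟨add8⟩

instance : CommRing F8 where
  add_assoc := add8_assoc
  zero_add := zero_add8
  add_zero := add8_zero
  nsmul := nsmulRec
  sub_eq_add_neg := fun _ _ => rfl
  zsmul := zsmulRec
  neg_add_cancel := add8_self
  add_comm := add8_comm
  left_distrib := mul8_add8
  right_distrib := add8_mul8
  zero_mul := zero_mul8
  mul_zero := mul8_zero
  mul_assoc := mul8_assoc
  one_mul := one_mul8
  mul_one := mul8_one
  mul_comm := mul8_comm

instance : Field F8 where
  inv := inv8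
  exists_pair_ne := ⟨cF 0, cF 1, by decide⟩
  mul_inv_cancel := mul8_inv8
  inv_zero := by decide +kernel
  nnqsmul := _
  nnqsmul_def := fun _ _ => rfl
  qsmul := _
  qsmul_def := fun _ _ => rfl

theorem card_F8 : Fintype.card F8 = 8 := Fintype.card_fin 8

theorem add8_def (a b : F8) : a + b = add8 a b := rfl
theorem mul8_def (a b : F8) : a * b = mul8 a b := rfl
theorem sub8_def (a b : F8) : a - b = add8 a b := rfl

theorem vF_cF {u : ℕ} (hu : u < 8) : vF (cF u) = u := by
  change u &&& 7 = u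
  rw [Nat.and_two_pow_sub_one_eq_mod u 3]
  exact Nat.mod_eq_of_lt hu

theorem cF_fa {u v : ℕ} (hu : u < 8) (hv : v < 8) : cF (fa u v) = cF u + cF v := by
  rw [add8_def, add8, vF_cF hu, vF_cF hv]

theorem cF_fm {u v : ℕ} (hu : u < 8) (hv : v < 8) : cF (fm u v) = cF u * cF v := by
  rw [mul8_def, mul8, vF_cF hu, vF_cF hv]

theorem fm_lt (u v : ℕ) : fm u v < 8 := land7_lt _

theorem fa_lt {u v : ℕ} (hu : u < 8) (hv : v < 8) : fa u v < 8 :=
  Nat.xor_lt_two_pow (n := 3) hu hv

/-! ### packed 2 × 2 matrices -/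

abbrev MatS := Matrix (Fin 2) (Fin 2) F8

/-- the digit number `k` (three bits) -/
def dS (x k : ℕ) : ℕ := Nat.land (Nat.shiftRight x (Nat.mul 3 k)) 7

theorem dS_lt (x k : ℕ) : dS x k < 8 := land7_lt _

theorem dS_eq (x k : ℕ) : dS x k = x / 8 ^ k % 8 := by
  unfold dS
  change (x >>> (3 * k)) &&& 7 = _
  rw [Nat.shiftRight_eq_div_pow, pow_mul]
  exact Nat.and_two_pow_sub_one_eq_mod _ 3

/-- the matrix coded by a natural number -/
def toS (x : ℕ) : MatS := Matrix.of fun i j => cF (dS x (2 * i.val + j.val))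

def pack4 (a b c d : ℕ) : ℕ :=
  Nat.add a (Nat.mul 8 (Nat.add b (Nat.mul 8 (Nat.add c (Nat.mul 8 d)))))

/-- entry `(i, j)` of the product -/
def eS (x y i j : ℕ) : ℕ :=
  fa (fm (dS x (Nat.mul 2 i)) (dS y j)) (fm (dS x (Nat.add (Nat.mul 2 i) 1)) (dS y (Nat.add 2 j)))

/-- the packed product -/
def mulS (x y : ℕ) : ℕ := pack4 (eS x y 0 0) (eS x y 0 1) (eS x y 1 0) (eS x y 1 1)

/-- the packed identity -/
def oneS : ℕ := 513

/-- the canonical form -/
def keyS (x : ℕ) : ℕ := pack4 (dS x 0) (dS x 1) (dS x 2) (dS x 3)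

theorem eS_lt (x y i j : ℕ) : eS x y i j < 8 := fa_lt (fm_lt _ _) (fm_lt _ _)

theorem dS_pack4 {a b c d : ℕ} (ha : a < 8) (hb : b < 8) (hc : c < 8) (hd : d < 8) :
    dS (pack4 a b c d) 0 = a ∧ dS (pack4 a b c d) 1 = b ∧ dS (pack4 a b c d) 2 = c ∧
      dS (pack4 a b c d) 3 = d := by
  simp only [dS_eq]
  have e : pack4 a b c d = a + 8 * (b + 8 * (c + 8 * d)) := rfl
  rw [e]
  norm_num
  omega

theorem dS_mulS (x y i j : ℕ) (hi : i < 2) (hj : j < 2) :
    dS (mulS x y) (2 * i + j) = eS x y i j := by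
  obtain ⟨h0, h1, h2, h3⟩ := dS_pack4 (eS_lt x y 0 0) (eS_lt x y 0 1) (eS_lt x y 1 0)
    (eS_lt x y 1 1)
  interval_cases i <;> interval_cases j
  · exact h0
  · exact h1
  · exact h2
  · exact h3

theorem toS_mulS (x y : ℕ) : toS (mulS x y) = toS x * toS y := by
  ext i j
  rw [Matrix.mul_apply, Fin.sum_univ_two]
  simp only [toS, Matrix.of_apply]
  rw [dS_mulS x y i.val j.val i.isLt j.isLt]
  have e : eS x y i.val j.val = fa (fm (dS x (2 * i.val)) (dS y j.val))
      (fm (dS x (2 * i.val + 1)) (dS y (2 + j.val))) := rfl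
  rw [e, cF_fa (fm_lt _ _) (fm_lt _ _), cF_fm (dS_lt _ _) (dS_lt _ _),
    cF_fm (dS_lt _ _) (dS_lt _ _)]
  simp only [Fin.val_zero, Fin.val_one, add_zero, mul_zero, zero_add, mul_one]

theorem toS_oneS : toS oneS = 1 := by decide +kernel

theorem cF_inj {u v : ℕ} (hu : u < 8) (hv : v < 8) (h : cF u = cF v) : u = v := by
  have := congrArg vF h
  rwa [vF_cF hu, vF_cF hv] at this

theorem keyS_eq (a b : ℕ) (h : toS a = toS b) : keyS a = keyS b := by
  have e : ∀ k < 4, dS a k = dS b k := by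
    intro k hk
    have h1 := congrFun (congrFun h ⟨k / 2, by omega⟩) ⟨k % 2, Nat.mod_lt _ (by norm_num)⟩
    simp only [toS, Matrix.of_apply] at h1
    rw [Nat.div_add_mod] at h1
    exact cF_inj (dS_lt _ _) (dS_lt _ _) h1
  unfold keyS
  rw [e 0 (by norm_num), e 1 (by norm_num), e 2 (by norm_num), e 3 (by norm_num)]

/-- the model of packed matrices -/
def modelS : Model MatS where
  toM := toS
  mulP := mulS
  oneP := oneS
  key := keyS
  toM_mul := toS_mulS
  toM_one := toS_oneS
  key_eq := keyS_eq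

/-- the special linear group -/
abbrev SL8 := Matrix.SpecialLinearGroup (Fin 2) F8

/-- the matrix of an element -/
def ψS : SL8 →* MatS where
  toFun g := (g : MatS)
  map_one' := rfl
  map_mul' _ _ := rfl

theorem ψS_inj : Function.Injective ψS := fun _ _ h => Subtype.ext h

/-- the determinant of a packed matrix -/
def detS (x : ℕ) : ℕ := fa (fm (dS x 0) (dS x 3)) (fm (dS x 1) (dS x 2))

theorem exists_SL8 {x : ℕ} (h : detS x = 1) : ∃ g : SL8, ψS g = modelS.toM x := by
  refine ⟨⟨toS x, ?_⟩, rfl⟩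
  rw [Matrix.det_fin_two, sub8_def, ← add8_def]
  simp only [toS, Matrix.of_apply, Fin.val_zero, Fin.val_one, add_zero, mul_zero, zero_add,
    mul_one]
  rw [← cF_fm (dS_lt _ _) (dS_lt _ _), ← cF_fm (dS_lt _ _) (dS_lt _ _),
    ← cF_fa (fm_lt _ _) (fm_lt _ _)]
  change cF (detS x) = 1
  rw [h]
  rfl

end Cfsg.Agent.Lib.Helper60.G2
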