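import Cfsg.Agent.Lib.Helper60.G2.Gens
import Cfsg.Agent.Lib.Helper60.G2.STab
import Cfsg.Agent.Lib.Helper5.PSL2
import Cfsg.Agent.Lib.Helper5.OrbitHom

/-!
The derived subgroup of `²G₂(3)` has order 504 and is isomorphic to `PSL₂` over a field with
eight elements; assembled from the kernel-checked tables.
-/

set_option autoImplicit false

namespace Cfsg.Agent.Lib.Helper60.G2

open Cfsg Cfsg.Lie Cfsg.Agent.Lib.Helper60.Cert

instance : Finite GLg := inferInstance

/-- the group generated by the 54 packed generators (the group of the Prelude) -/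
def Gg : Subgroup GLg := genGrp model ψG gN 54
/-- the group generated by two commutators -/
def Kg : Subgroup GLg := genGrp model ψG Kgen 2

theorem inv_spec : ∀ l < 54, mulP (gN l) (gI l) = oneP ∧ mulP (gI l) (gN l) = oneP := by
  intro l hl
  have h := allBelow_spec _ _ inv_ok l hl
  simp only [chkInv, Bool.and_eq_true] at h
  exact ⟨Nat.eq_of_beq_eq_true h.1, Nat.eq_of_beq_eq_true h.2⟩

theorem hexG : ∀ l < 54, ∃ g, ψG g = model.toM (gN l) := fun l hl =>
  exists_of_inv (inv_spec l hl).1 (inv_spec l hl).2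

theorem gN_real : ∀ l < 54, Real model ψG Gg (gN l) := gen_real hexG

theorem gI_real : ∀ l < 54, Real model ψG Gg (gI l) := fun l hl =>
  Cfsg.Agent.Lib.Helper60.F4.real_inv (gN_real l hl) (inv_spec l hl).1

theorem Kgen_real_G : ∀ l < 2, Real model ψG Gg (Kgen l) := by
  obtain ⟨h1, h2, h3, h4, _⟩ := idx_lt
  intro l hl
  interval_cases l
  · exact ((((gN_real ci0 h1).mul (gN_real cj0 h2)).mul (gI_real ci0 h1)).mul
      (gI_real cj0 h2)).of_eq c0_ok.symm
  · exact ((((gN_real ci1 h3).mul (gN_real cj1 h4)).mul (gI_real ci1 h3)).mul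
      (gI_real cj1 h4)).of_eq c1_ok.symm

theorem hexK : ∀ l < 2, ∃ g, ψG g = model.toM (Kgen l) := by
  intro l hl
  obtain ⟨g, _, hg⟩ := Kgen_real_G l hl
  exact ⟨g, hg⟩

theorem Kgen_real_K : ∀ l < 2, Real model ψG Kg (Kgen l) := gen_real hexK

theorem Kg_le_Gg : Kg ≤ Gg := genGrp_le ψG_inj Gg Kgen_real_G

theorem card_Kg : Nat.card Kg = 504 := card_L (D := KL) KLok ψG_inj hexK

theorem KT_real : ∀ j < 504, Real model ψG Kg (KT j) := L_sup (D := KL) KLok hexK

/-- the subgroup generated by the two commutators lies in the commutator subgroup -/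
theorem Kg_le_comm : Kg ≤ (commutator Gg).map Gg.subtype := by
  have key : ∀ {aL bL aI bI c : ℕ}, Real model ψG Gg aL → Real model ψG Gg bL →
      mulP aL aI = oneP → mulP bL bI = oneP → c = mulP (mulP (mulP aL bL) aI) bI →
      Real model ψG ((commutator Gg).map Gg.subtype) c := by
    intro aL bL aI bI c ha hb hai hbi hc
    obtain ⟨a, haL, hav⟩ := ha
    obtain ⟨b, hbL, hbv⟩ := hb
    refine ⟨a * b * a⁻¹ * b⁻¹, ?_, ?_⟩
    · have h1 : (⟨a, haL⟩ : Gg) * ⟨b, hbL⟩ * (⟨a, haL⟩ : Gg)⁻¹ * (⟨b, hbL⟩ : Gg)⁻¹ ∈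
          commutator Gg := comm_mem_comm _ _
      rw [Subgroup.mem_map]
      exact ⟨_, h1, rfl⟩
    · rw [map_mul, map_mul, map_mul, hav, hbv,
        Cfsg.Agent.Lib.Helper60.Ru.inv_val_of_chk (μ := model) hav hai,
        Cfsg.Agent.Lib.Helper60.Ru.inv_val_of_chk (μ := model) hbv hbi, hc]
      change _ = toMat _
      rw [toMat_mulP, toMat_mulP, toMat_mulP]
      rfl
  obtain ⟨h1, h2, h3, h4, _⟩ := idx_lt
  apply genGrp_le ψG_inj
  intro l hl
  interval_cases l
  · exact key (gN_real ci0 h1) (gN_real cj0 h2) (inv_spec ci0 h1).1 (inv_spec cj0 h2).1 c0_ok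
  · exact key (gN_real ci1 h3) (gN_real cj1 h4) (inv_spec ci1 h3).1 (inv_spec cj1 h4).1 c1_ok

/-- conjugating the subgroup by a packed element with certificates -/
theorem conj_le {a : GLg} {aP aI n0 n1 : ℕ} (hav : ψG a = model.toM aP)
    (hai : mulP aP aI = oneP) (hn0 : n0 < 504) (hn1 : n1 < 504)
    (h0 : mulP (mulP aP (Kgen 0)) aI = KT n0) (h1 : mulP (mulP aP (Kgen 1)) aI = KT n1) :
    ∀ k ∈ Kg, a * k * a⁻¹ ∈ Kg := by
  have key : ∀ {c n : ℕ}, Real model ψG Kg c → n < 504 → mulP (mulP aP c) aI = KT n →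
      Real model ψG (Kg.comap (MulAut.conj a).toMonoidHom) c := by
    intro c n hc hn h
    obtain ⟨g, hg, hgv⟩ := hc
    obtain ⟨k', hk', hkv'⟩ := KT_real n hn
    refine ⟨g, ?_, hgv⟩
    rw [Subgroup.mem_comap]
    change a * g * a⁻¹ ∈ Kg
    have e : a * g * a⁻¹ = k' := by
      apply ψG_inj
      rw [map_mul, map_mul, hav, hgv, Cfsg.Agent.Lib.Helper60.Ru.inv_val_of_chk (μ := model) hav hai,
        hkv', ← h]
      change _ = toMat _
      rw [toMat_mulP, toMat_mulP]
      rfl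
    rw [e]
    exact hk'
  have hle : Kg ≤ Kg.comap (MulAut.conj a).toMonoidHom := by
    apply genGrp_le ψG_inj
    intro l hl
    interval_cases l
    · exact key (Kgen_real_K 0 (by norm_num)) hn0 h0
    · exact key (Kgen_real_K 1 (by norm_num)) hn1 h1
  intro k hk
  exact hle hk

/-- the commutator subgroup lies in the subgroup generated by the two commutators -/
theorem comm_le_Kg : commutator Gg ≤ Kg.subgroupOf Gg := by
  obtain ⟨_, _, _, _, h5⟩ := idx_lt
  obtain ⟨hk0, hk1, hk2, hk3⟩ := kn_lt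
  obtain ⟨e0, e1, e2, e3⟩ := n1_ok
  obtain ⟨a, haG, hav⟩ := gN_real gaI h5
  have hai : ψG a⁻¹ = model.toM (gI gaI) :=
    Cfsg.Agent.Lib.Helper60.Ru.inv_val_of_chk (μ := model) hav (inv_spec gaI h5).1
  have hn1 := conj_le hav (inv_spec gaI h5).1 hk0 hk1 e0 e1
  have hn2 := conj_le hai (inv_spec gaI h5).2 hk2 hk3 e2 e3
  rw [inv_inv] at hn2
  refine comm_le_of_cyclic Gg Kg Kg_le_Gg {g | ∃ l < 54, ψG g = model.toM (gN l)} rfl a haG
    hn1 hn2 ?_
  rintro s ⟨l, hl, hs⟩
  have h := allBelow_spec _ _ f1_ok l hl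
  simp only [chkF1, Bool.and_eq_true, Nat.blt_eq] at h
  obtain ⟨k, hk, hkv⟩ := KT_real (f1j l) h.2
  refine ⟨k, hk, f1e l, ?_⟩
  apply ψG_inj
  rw [hs, map_mul, map_pow, hkv, hav, Nat.eq_of_beq_eq_true h.1]
  change toMat _ = _
  rw [toMat_mulP]
  change _ * model.toM _ = _
  rw [model.toM_powP]
  rfl

theorem comm_eq : commutator Gg = Kg.subgroupOf Gg :=
  le_antisymm comm_le_Kg (subgroupOf_le_comm Gg Kg Kg_le_comm)

/-! ### the special linear group -/

instance : Finite SL8 := inferInstance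

theorem hexS : ∀ l < 2, ∃ g, ψS g = modelS.toM (Sgen l) := by
  intro l hl
  interval_cases l
  · exact exists_SL8 Sdet_ok.1
  · exact exists_SL8 Sdet_ok.2

theorem card_SL8 : Nat.card SL8 = 504 := by
  have h := Cfsg.Agent.Lib.Helper5.card_SL2 (F := F8)
  rw [card_F8] at h
  exact h

theorem Sg_top : genGrp modelS ψS Sgen 2 = ⊤ := by
  apply Subgroup.eq_top_of_card_eq
  rw [card_SL8]
  exact card_L (D := SL) SLok ψS_inj hexS

theorem Kg_iso_SL8 : Nonempty (Kg ≃* SL8) := by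
  obtain ⟨e⟩ := iso_of_tables (μ := model) (μ' := modelS) (ψ := ψG) (ψ' := ψS) (D := KL)
    (D' := SL) KLok SLok rfl rfl Snx_eq ψG_inj ψS_inj hexK hexS
  have e' : Kg ≃* genGrp modelS ψS Sgen 2 := e
  exact ⟨e'.trans ((MulEquiv.subgroupCongr Sg_top).trans Subgroup.topEquiv)⟩

theorem main_Gg {L : Type*} [Field L] [Fintype L] (hL : Fintype.card L = 8) :
    Nat.card (commutator Gg) = 504 ∧
      Nonempty (commutator Gg ≃* Matrix.ProjectiveSpecialLinearGroup (Fin 2) L) := by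
  have e1 : commutator Gg ≃* Kg :=
    (MulEquiv.subgroupCongr comm_eq).trans (Subgroup.subgroupOfEquivOfLe Kg_le_Gg)
  refine ⟨(Nat.card_congr e1.toEquiv).trans card_Kg, ?_⟩
  obtain ⟨e2⟩ := Kg_iso_SL8
  have e3 : SL8 ≃* Matrix.SpecialLinearGroup (Fin 2) L :=
    Cfsg.Agent.Lib.Helper5.slCongr (FiniteField.ringEquivOfCardEq (by rw [card_F8, hL]))
  have h2 : (2 : L) = 0 :=
    Cfsg.Agent.Lib.Helper5.two_eq_zero_of_even_card (by rw [hL]; decide)
  have hc := Cfsg.Agent.Lib.Helper5.center_SL2_eq_bot_of_two_eq_zero h2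
  have e4 : Matrix.ProjectiveSpecialLinearGroup (Fin 2) L ≃* Matrix.SpecialLinearGroup (Fin 2) L :=
    (QuotientGroup.quotientMulEquivOfEq hc).trans QuotientGroup.quotientBot
  exact ⟨((e1.trans e2).trans e3).trans e4.symm⟩

theorem main_of_eq {A : Subgroup GLg} (h : A = Gg) {L : Type*} [Field L] [Fintype L]
    (hL : Fintype.card L = 8) :
    Nat.card (commutator A) = 504 ∧
      Nonempty (commutator A ≃* Matrix.ProjectiveSpecialLinearGroup (Fin 2) L) := by
  subst h
  exact main_Gg hL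

/-- the derived subgroup of `²G₂(3)` -/
theorem main {L : Type*} [Field L] [Fintype L] (hL : Fintype.card L = 8) :
    Nat.card (commutator (twistedG2 (ZMod 3) 1)) = 504 ∧
      Nonempty (commutator (twistedG2 (ZMod 3) 1) ≃*
        Matrix.ProjectiveSpecialLinearGroup (Fin 2) L) :=
  main_of_eq twistedG2_eq hL

end Cfsg.Agent.Lib.Helper60.G2
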